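import Cfsg.Agent.Lib.Transfer.ElemCent2
import Cfsg.Agent.Lib.Transfer.PslRec

/-!
Groups with elementary abelian involution centralizers are `PSL₂(2ⁿ)`.
-/

set_option autoImplicit false

namespace Cfsg.Agent.Tr

open Subgroup OnePoint

variable {G : Type*} [Group G]

/-- An abelian group `D` acting regularly on the nonidentity elements of an abelian group `T`
gives a field. -/
theorem exists_field_of_regular [Finite G] {T D : Subgroup G}
    (hD : ∀ a ∈ D, ∀ b ∈ D, Commute a b) (hN : D ≤ normalizer (T : Set G)) {s : G} (hs : s ∈ T)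
    (hs1 : s ≠ 1) (hex : ∀ t ∈ T, t ≠ 1 → ∃ d ∈ D, d * s * d⁻¹ = t)
    (huniq : ∀ a ∈ D, ∀ b ∈ D, a * s * a⁻¹ = b * s * b⁻¹ → a = b) :
    ∃ (F : Type) (_ : Field F) (τ : F → G), (∀ a, τ a ∈ T) ∧ (∀ t ∈ T, ∃ a, τ a = t) ∧
      Function.Injective τ ∧ (∀ a b, τ (a + b) = τ a * τ b) ∧
      (∀ d ∈ D, ∃ a, a ≠ 0 ∧ ∀ b, d * τ b * d⁻¹ = τ (a * b)) ∧
      (∀ a, a ≠ 0 → ∃ d ∈ D, ∀ b, d * τ b * d⁻¹ = τ (a * b)) := by
  classical
  obtain ⟨K, τ, σ, hτ, hinj, hσ⟩ : ∃ (K : Type) (τ : K → G) (σ : G → K), (∀ a, τ a ∈ T) ∧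
      Function.Injective τ ∧ ∀ t ∈ T, τ (σ t) = t := by
    let e := equivShrink.{0} T
    exact ⟨Shrink.{0} T, fun a => e.symm a, fun t => if h : t ∈ T then e ⟨t, h⟩ else e 1,
      fun a => (e.symm a).2, Subtype.val_injective.comp e.symm.injective,
      fun t ht => by simp [ht]⟩
  have hδ : ∀ a : K, ∃ d ∈ D, τ a ≠ 1 → d * s * d⁻¹ = τ a := fun a => by
    by_cases h : τ a = 1
    · exact ⟨1, one_mem _, fun h' => absurd h h'⟩
    · obtain ⟨d, hd, e⟩ := hex _ (hτ a) h
      exact ⟨d, hd, fun _ => e⟩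
  choose δ hδD hδ using hδ
  let : Add K := ⟨fun a b => σ (τ a * τ b)⟩
  let : Mul K := ⟨fun a b => σ (if τ a = 1 then 1 else δ a * τ b * (δ a)⁻¹)⟩
  let : Neg K := ⟨fun a => σ (τ a)⁻¹⟩
  let : Inv K := ⟨fun a => σ (if τ a = 1 then 1 else (δ a)⁻¹ * s * δ a)⟩
  let : Zero K := ⟨σ 1⟩
  let : One K := ⟨σ s⟩
  have hadd : ∀ a b : K, τ (a + b) = τ a * τ b := fun a b => hσ _ (mul_mem (hτ a) (hτ b))
  have hneg : ∀ a : K, τ (-a) = (τ a)⁻¹ := fun a => hσ _ (inv_mem (hτ a))
  have h0 : τ 0 = 1 := hσ _ (one_mem _)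
  have h1 : τ 1 = s := hσ _ hs
  have hz : ∀ a : K, τ a = 1 ↔ a = 0 := fun a => by rw [← h0]; exact hinj.eq_iff
  have hmul : ∀ a b : K, τ (a * b) = if τ a = 1 then 1 else δ a * τ b * (δ a)⁻¹ := fun a b =>
    hσ _ (by
      split_ifs
      · exact one_mem _
      · exact conj_mem_of_mem_normalizer (hN (hδD a)) (hτ b))
  have hinv : ∀ a : K, τ a⁻¹ = if τ a = 1 then 1 else (δ a)⁻¹ * s * δ a := fun a =>
    hσ _ (by
      split_ifs
      · exact one_mem _
      · exact conj_mem_of_mem_normalizer' (hN (hδD a)) hs)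
  have hmul0 : ∀ a b : K, τ a = 1 → τ (a * b) = 1 := fun a b h => by rw [hmul, if_pos h]
  have hmul1 : ∀ a b : K, τ a ≠ 1 → τ (a * b) = δ a * τ b * (δ a)⁻¹ := fun a b h => by
    rw [hmul, if_neg h]
  have hmul0' : ∀ a b : K, τ b = 1 → τ (a * b) = 1 := fun a b h => by
    rw [hmul]; split_ifs <;> simp [h]
  have hδu : ∀ a : K, ∀ d ∈ D, d * s * d⁻¹ = τ a → δ a = d := fun a d hd e =>
    huniq _ (hδD a) _ hd (by rw [hδ a (by rw [← e]; simpa using hs1), e])
  let inst : Field K := Field.ofMinimalAxioms K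
    (fun a b c => hinj (by simp only [hadd, mul_assoc]))
    (fun a => hinj (by rw [hadd, h0, one_mul]))
    (fun a => hinj (by rw [hadd, hneg, h0, inv_mul_cancel]))
    (fun a b c => hinj (by
      by_cases ha : τ a = 1
      · rw [hmul0 _ _ (hmul0 _ _ ha), hmul0 _ _ ha]
      by_cases hb : τ b = 1
      · rw [hmul0 _ _ (hmul0' _ _ hb), hmul0' _ _ (hmul0 _ _ hb)]
      have e : δ (a * b) = δ a * δ b := hδu _ _ (mul_mem (hδD a) (hδD b)) (by
        rw [hmul1 _ _ ha, ← hδ b hb]; group)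
      rw [hmul1 (a * b) _ (by rw [hmul1 _ _ ha]; simpa using hb), e, hmul1 _ _ ha, hmul1 _ _ hb]
      group))
    (fun a b => hinj (by
      by_cases ha : τ a = 1
      · rw [hmul0 _ _ ha, hmul0' _ _ ha]
      by_cases hb : τ b = 1
      · rw [hmul0 _ _ hb, hmul0' _ _ hb]
      rw [hmul1 _ _ ha, hmul1 _ _ hb, ← hδ a ha, ← hδ b hb]
      calc δ a * (δ b * s * (δ b)⁻¹) * (δ a)⁻¹ = (δ a * δ b) * s * (δ a * δ b)⁻¹ := by group
        _ = _ := by rw [(hD _ (hδD a) _ (hδD b)).eq]; group))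
    (fun a => hinj (by
      rw [hmul1 _ _ (by rwa [h1]), hδu 1 1 (one_mem _) (by simp [h1])]; simp))
    (fun a ha => hinj (by
      have ha' : τ a ≠ 1 := fun h => ha ((hz a).1 h)
      rw [hmul1 _ _ ha', hinv, if_neg ha', h1]; group))
    (hinj (by rw [hinv, if_pos h0, h0]))
    (fun a b c => hinj (by
      by_cases ha : τ a = 1
      · rw [hadd, hmul0 _ _ ha, hmul0 _ _ ha, hmul0 _ _ ha, one_mul]
      rw [hadd, hmul1 _ _ ha, hmul1 _ _ ha, hmul1 _ _ ha, hadd]; group))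
    ⟨0, 1, fun e => hs1 (by rw [← h1, ← e, h0])⟩
  refine ⟨K, inst, τ, hτ, fun t ht => ⟨σ t, hσ t ht⟩, hinj, hadd, fun d hd => ?_, fun a ha => ?_⟩
  · have e := hσ _ (conj_mem_of_mem_normalizer (hN hd) hs)
    have hne : τ (σ (d * s * d⁻¹)) ≠ 1 := by rw [e]; simpa using hs1
    refine ⟨σ (d * s * d⁻¹), fun h => hne ((hz _).2 h), fun b => ?_⟩
    have := hmul1 _ b hne
    rw [hδu _ d hd e.symm] at this
    exact this.symm
  · exact ⟨δ a, hδD a, fun b => (hmul1 a b fun h => ha ((hz a).1 h)).symm⟩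

theorem EC.exists_psl [Finite G] {T : Subgroup G} (h : EC T) :
    ∃ (F : Type) (_ : Field F) (_ : Fintype F), Fintype.card F = Nat.card T ∧
      Nonempty (G ≃* Matrix.ProjectiveSpecialLinearGroup (Fin 2) F) := by
  classical
  obtain ⟨u, huH, hu⟩ := SE.exists_not_mem h.se
  have hu2 := mul_self_of_orderOf_two hu
  obtain ⟨s, hs, -, -, hs1, -⟩ := h.exists_two
  obtain ⟨F, inst, τ, hτ, hsurj, hinj, hadd, hd1, hd2⟩ := exists_field_of_regular (D := EC.D T u)
    (fun a ha b hb => h.comm_D huH ha hb) inf_le_left hs hs1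
    (fun t ht ht1 => h.exists_conj huH hs hs1 ht ht1)
    (fun a ha b hb e => h.eq_of_conj_eq huH hs hs1 ha hb e)
  have h0 : τ 0 = 1 := by simpa using hadd 0 0
  have hbij : Function.Bijective (fun a => (⟨τ a, hτ a⟩ : T)) :=
    ⟨fun a b e => hinj (congrArg Subtype.val e), fun t => by
      obtain ⟨a, ha⟩ := hsurj t t.2
      exact ⟨a, Subtype.ext ha⟩⟩
  have : Finite F := Finite.of_injective _ hinj
  have : CharP F 2 := CharTwo.of_one_ne_zero_of_two_eq_zero one_ne_zero (hinj (by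
    rw [← one_add_one_eq_two, hadd, h0, h.sq (hτ 1)]))
  let instF := Fintype.ofFinite F
  refine ⟨F, inst, instF, by
    rw [← Nat.card_eq_fintype_card]; exact Nat.card_eq_of_bijective _ hbij, ?_⟩
  have hne : ∀ a, (QuotientGroup.mk (τ a * u) : G ⧸ normalizer (T : Set G)) ≠ QuotientGroup.mk 1 :=
    fun a e => huH (by simpa using mul_mem (inv_mem (le_normalizer (hτ a))) (mk_eq_one_iff.1 e))
  obtain ⟨e, e1, e2⟩ : ∃ e : OnePoint F ≃ G ⧸ normalizer (T : Set G), e ∞ = QuotientGroup.mk 1 ∧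
      ∀ a : F, e a = QuotientGroup.mk (τ a * u) := by
    refine ⟨Equiv.ofBijective (fun x => OnePoint.elim x (QuotientGroup.mk 1)
      (fun a => QuotientGroup.mk (τ a * u))) ⟨?_, ?_⟩, rfl, fun a => rfl⟩
    · intro x y e
      induction x using OnePoint.rec <;> induction y using OnePoint.rec
      · rfl
      · exact absurd e.symm (hne _)
      · exact absurd e (hne _)
      · exact congrArg _ (hinj (h.eq_of_mem_coset huH (hτ _) (hτ _) (QuotientGroup.eq.1 e)))
    · intro y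
      induction y using QuotientGroup.induction_on with | _ y => ?_
      by_cases hy : y ∈ normalizer (T : Set G)
      · exact ⟨∞, (mk_eq_one_iff.2 hy).symm⟩
      · obtain ⟨t, ht, h1⟩ := h.exists_mem_coset huH hy
        obtain ⟨a, rfl⟩ := hsurj t ht
        exact ⟨a, QuotientGroup.eq.2 h1⟩
  have n1 : e ∞ ≠ e (0 : F) := fun h => by simpa using e.injective h
  have n2 : e ∞ ≠ e (1 : F) := fun h => by simpa using e.injective h
  have n3 : e (0 : F) ≠ e (1 : F) := fun h => by simpa using e.injective h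
  refine nonempty_mulEquiv_psl e (fun g hg => h.sharp n1 n2 n3 (hg _) (hg _) (hg _)) ?_
    (fun _ _ _ _ _ _ a b c d e f => h.triply a b c d e f)
  obtain ⟨P, hP⟩ : ∃ P : G → Prop, P = fun g => ∃ m : Matrix.SpecialLinearGroup (Fin 2) F,
      ∀ x : OnePoint F, g • e x = e (Matrix.SpecialLinearGroup.toGL m • x) := ⟨_, rfl⟩
  have Pmul : ∀ a b, P a → P b → P (a * b) := by
    subst hP
    rintro a b ⟨m, hm⟩ ⟨n, hn⟩
    exact ⟨m * n, fun x => by rw [mul_smul, hn, hm, map_mul, mul_smul]⟩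
  have hT : ∀ b a : F, τ b • e a = e (a + b : F) := fun b a => by
    rw [e2, e2, add_comm, hadd, mul_assoc]; rfl
  have hD : ∀ d ∈ EC.D T u, ∀ c : F, (∀ b, d * τ b * d⁻¹ = τ (c * b)) → ∀ a : F,
      d • e a = e (c * a : F) := fun d hd c hc a => by
    rw [e2, e2, smul_mk_eq_iff, ← hc]
    simpa [mul_assoc] using mem_cj.1 (inv_mem hd.2)
  have PT : ∀ t ∈ T, P t := by
    subst hP
    intro t ht
    obtain ⟨b, rfl⟩ := hsurj t ht
    obtain ⟨m, m1, m2⟩ := exists_sl_smul 1 b 0 1 (by simp)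
    refine ⟨m, fun x => ?_⟩
    induction x using OnePoint.rec with
    | infty => rw [m1, if_pos rfl, e1]; exact smul_mk_one_iff.2 (le_normalizer ht)
    | coe k => rw [m2, hT]; simp
  have PD : ∀ d ∈ EC.D T u, P d := by
    subst hP
    intro d hd
    obtain ⟨c, hc0, hc⟩ := hd1 d hd
    obtain ⟨r, rfl⟩ := isSquare_of_charTwo' c
    have hr : r ≠ 0 := by rintro rfl; simp at hc0
    obtain ⟨m, m1, m2⟩ := exists_sl_smul r 0 0 r⁻¹ (by simp [hr])
    refine ⟨m, fun x => ?_⟩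
    induction x using OnePoint.rec with
    | infty => rw [m1, if_pos rfl, e1]; exact smul_mk_one_iff.2 hd.1
    | coe k =>
      rw [m2, hD d hd _ hc]
      simp [hr, mul_comm, mul_left_comm]
  have Pu : P u := by
    subst hP
    have u1 : u • e ∞ = e (0 : F) := by rw [e1, e2, h0]; simp
    have u0 : u • e (0 : F) = e ∞ := by rw [← u1, ← mul_smul, hu2, one_smul]
    obtain ⟨y, hy⟩ := e.surjective (u • e (1 : F))
    induction y using OnePoint.rec with
    | infty => exact absurd (MulAction.injective u (u0.trans hy)) n3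
    | coe c =>
      have hc0 : c ≠ 0 := by
        rintro rfl
        exact n2 (MulAction.injective u (u1.trans hy))
      obtain ⟨r, rfl⟩ := isSquare_of_charTwo' c
      have hr : r ≠ 0 := by rintro rfl; simp at hc0
      obtain ⟨m, m1, m2⟩ := exists_sl_smul 0 r r⁻¹ 0 (by simp [hr, CharTwo.neg_eq])
      refine ⟨m, fun x => ?_⟩
      induction x using OnePoint.rec with
      | infty => rw [m1, u1]; simp [hr]
      | coe k =>
        rw [m2]
        by_cases hk : k = 0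
        · subst hk; rw [u0]; simp
        obtain ⟨d, hd, hc⟩ := hd2 k hk
        have a1 := hD d hd k hc 1
        have a2 := hD d hd k hc (k⁻¹ * (r * r))
        rw [mul_one] at a1
        rw [mul_inv_cancel_left₀ hk, hy, ← eq_inv_smul_iff, ← mul_smul,
          ← h.inverts_D hu huH hd, inv_mul_cancel_right, mul_smul, a1] at a2
        rw [← a2, if_neg (by simp [hr, hk])]
        congr 2
        rw [zero_mul, zero_add, add_zero]
        field_simp
  suffices ∀ g, P g by subst hP; exact this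
  have PH : ∀ g ∈ normalizer (T : Set G), P g := fun g hg => by
    obtain ⟨t, ht, d, hd, rfl⟩ := h.exists_mul huH hg
    exact Pmul _ _ (PT t ht) (PD d hd)
  intro g
  by_cases hg : g ∈ normalizer (T : Set G)
  · exact PH g hg
  · obtain ⟨t, ht, h1⟩ := h.exists_mem_coset huH hg
    have := Pmul _ _ (Pmul _ _ (PT t ht) Pu) (PH _ h1)
    rwa [mul_inv_cancel_left] at this

end Cfsg.Agent.Tr
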